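import Mathlib
import Cfsg.Agent.Suz.Weights

/-! Suzuki `2`-groups with a solvable group of automorphisms, part 1: weight arguments over a
finite field of characteristic two for an element generating a subgroup of small index. -/

set_option autoImplicit false
set_option linter.style.haveILetI false
set_option linter.unusedSectionVars false

namespace Cfsg.Agent.Suz.Sol

open FM

theorem nt_small : ∀ n : Fin 13, ∀ a b c : Fin 12, 2 ≤ n.1 → a.1 < n.1 → b.1 < n.1 → c.1 < n.1 →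
    (n.1 * (2 ^ a.1 + 2 ^ b.1)) % (2 ^ n.1 - 1) = (n.1 * 2 ^ c.1) % (2 ^ n.1 - 1) → a = b := by
  decide +kernel

theorem two_pow_add_ne {a b c : ℕ} (h : 2 ^ a + 2 ^ b = 2 ^ c) : a = b := by
  have key : ∀ a b : ℕ, a < b → 2 ^ a + 2 ^ b ≠ 2 ^ c := by
    intro a b hab h
    have h1 : 2 ^ a < 2 ^ b := Nat.pow_lt_pow_right (by norm_num) hab
    have h2 : 0 < 2 ^ a := by positivity
    have h3 : b < c := (Nat.pow_lt_pow_iff_right (a := 2) (by norm_num)).1 (by omega)
    have h4 : c < b + 1 := (Nat.pow_lt_pow_iff_right (a := 2) (by norm_num)).1 (by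
      rw [pow_succ]; omega)
    omega
  rcases lt_trichotomy a b with h1 | h1 | h1
  · exact absurd h (key a b h1)
  · exact h1
  · exact absurd (by rw [add_comm]; exact h) (key b a h1)

theorem six_mul_lt (s : ℕ) (hs : 5 ≤ s) : 6 * s < 2 ^ s := by
  induction s, hs using Nat.le_induction with
  | base => norm_num
  | succ s _ ih => rw [pow_succ]; omega

/-- The three term relation modulo `(2 ^ n - 1) / gcd (n, 2 ^ n - 1)`. -/
theorem nt {n a b c : ℕ} (hn : 2 ≤ n) (ha : a < n) (hb : b < n) (hc : c < n)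
    (h : n * (2 ^ a + 2 ^ b) ≡ n * 2 ^ c [MOD 2 ^ n - 1]) : a = b := by
  by_cases h13 : n < 13
  · have := nt_small ⟨n, h13⟩ ⟨a, by omega⟩ ⟨b, by omega⟩ ⟨c, by omega⟩ hn ha hb hc h
    exact congrArg Fin.val this
  have hM : 2 ^ n ≡ 1 [MOD 2 ^ n - 1] :=
    ((Nat.modEq_iff_dvd' Nat.one_le_two_pow).2 dvd_rfl).symm
  have hsh : ∀ x x' k : ℕ, (x + k = x' ∨ x + k = x' + n) → 2 ^ x * 2 ^ k ≡ 2 ^ x' [MOD 2 ^ n - 1] := by
    rintro x x' k (e | e)
    · rw [← pow_add, e]
    · rw [← pow_add, e, pow_add]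
      simpa using hM.mul_left (2 ^ x')
  obtain ⟨k, a', b', c', h1, h2, h3, h4, h5, h6⟩ : ∃ k a' b' c' : ℕ,
      (a + k = a' ∨ a + k = a' + n) ∧ (b + k = b' ∨ b + k = b' + n) ∧
      (c + k = c' ∨ c + k = c' + n) ∧ 3 * a' ≤ 2 * n ∧ 3 * b' ≤ 2 * n ∧ 3 * c' ≤ 2 * n := by
    let r : ℕ → ℕ → ℕ := fun x p => if p ≤ x then x - p else x + n - p
    have hr : ∀ x p, x < n → p < n → (x + (n - p) = r x p ∨ x + (n - p) = r x p + n) := by
      intro x p hx hp
      simp only [r]; split_ifs <;> omega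
    have : (3 * r b a ≤ 2 * n ∧ 3 * r c a ≤ 2 * n) ∨ (3 * r a b ≤ 2 * n ∧ 3 * r c b ≤ 2 * n) ∨
        (3 * r a c ≤ 2 * n ∧ 3 * r b c ≤ 2 * n) := by
      simp only [r]; split_ifs <;> omega
    have h0 : ∀ p, 3 * r p p ≤ 2 * n := fun p => by simp [r]
    rcases this with h | h | h
    · exact ⟨n - a, _, _, _, hr a a ha ha, hr b a hb ha, hr c a hc ha, h0 a, h.1, h.2⟩
    · exact ⟨n - b, _, _, _, hr a b ha hb, hr b b hb hb, hr c b hc hb, h.1, h0 b, h.2⟩
    · exact ⟨n - c, _, _, _, hr a c ha hc, hr b c hb hc, hr c c hc hc, h.1, h.2, h0 c⟩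
  have h7 : n * (2 ^ a' + 2 ^ b') ≡ n * 2 ^ c' [MOD 2 ^ n - 1] := by
    have h8 := h.mul_right (2 ^ k)
    rw [mul_assoc, mul_assoc, add_mul] at h8
    exact ((((hsh _ _ _ h1).add (hsh _ _ _ h2)).mul_left n).symm.trans h8).trans
      ((hsh _ _ _ h3).mul_left n)
  obtain ⟨t, ht⟩ : ∃ t, t = 2 * n / 3 := ⟨_, rfl⟩
  have h9 : 2 * n < 2 ^ (n - t) := by
    have := six_mul_lt (n - t) (by omega)
    omega
  have h10 : (2 * n + 1) * 2 ^ t ≤ 2 ^ n := by
    calc (2 * n + 1) * 2 ^ t ≤ 2 ^ (n - t) * 2 ^ t := Nat.mul_le_mul_right _ h9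
      _ = 2 ^ n := by rw [← pow_add]; congr 1; omega
  have hp : ∀ x, 3 * x ≤ 2 * n → 2 ^ x ≤ 2 ^ t := fun x hx =>
    Nat.pow_le_pow_right (by norm_num) (by omega)
  have ht2 : 2 ≤ 2 ^ t := by
    calc 2 = 2 ^ 1 := rfl
      _ ≤ 2 ^ t := Nat.pow_le_pow_right (by norm_num) (by omega)
  have h11 : n * (2 ^ a' + 2 ^ b') < 2 ^ n - 1 := by
    have := Nat.mul_le_mul_left n (Nat.add_le_add (hp a' h4) (hp b' h5))
    have e : (2 * n + 1) * 2 ^ t = n * (2 ^ t + 2 ^ t) + 2 ^ t := by ring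
    omega
  have h12 : n * 2 ^ c' < 2 ^ n - 1 := by
    have := Nat.mul_le_mul_left n (hp c' h6)
    have e : (2 * n + 1) * 2 ^ t = n * 2 ^ t + n * 2 ^ t + 2 ^ t := by ring
    omega
  have h13 := Nat.eq_of_mul_eq_mul_left (by omega : 0 < n) (Nat.ModEq.eq_of_lt_of_lt h7 h11 h12)
  have := two_pow_add_ne h13
  omega

variable {F : Type*} [Field F] [Fintype F] [CharP F 2]

/-- The product of two different conjugates of `l` is not a conjugate of `l`. -/
def P3 (l : F) : Prop := l ≠ 0 ∧ ∀ σ τ ρ : F ≃+* F, σ l * τ l = ρ l → σ = τ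

/-- Squaring. -/
noncomputable def fr : F ≃+* F := frobeniusEquiv F 2

theorem fr_apply (x : F) : fr x = x * x := by
  rw [← pow_two]; rfl

/-- The square root. -/
noncomputable def rt : F ≃+* F := fr.symm

theorem rt_mul_self (x : F) : rt x * rt x = x := by
  rw [← fr_apply]; exact fr.apply_symm_apply x

theorem exists_pow (σ : F ≃+* F) : ∃ k : ℕ, ∀ x, σ x = x ^ 2 ^ k := by
  letI : Algebra (ZMod 2) F := ZMod.algebra F 2
  obtain ⟨i, hi⟩ := FiniteField.exists_forall_apply_eq_pow (ZMod 2) 2 F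
    (AlgEquiv.ofRingEquiv (f := σ) fun x => by
      fin_cases x
      · exact (congrArg σ (map_zero _)).trans ((map_zero σ).trans (map_zero _).symm)
      · exact (congrArg σ (map_one _)).trans ((map_one σ).trans (map_one _).symm))
  exact ⟨i, fun x => by simpa using hi x⟩

theorem P3.ext {l : F} (h : P3 l) {σ τ : F ≃+* F} (e : σ l = τ l) : σ = τ :=
  h.2 σ τ (σ.trans fr) (by rw [RingEquiv.trans_apply, fr_apply, e])

/-- An equivariant pairing between conjugates of the natural module has a single term. -/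
theorem P3.single {l : F} (h : P3 l) (κ₁ κ₂ : F ≃+* F) (B : F →+ F →+ F)
    (hB : ∀ x y, B (κ₁ l * x) (κ₂ l * y) = l * B x y) (x y : F) :
    B x y = B 1 1 * (rt (κ₁.symm x) * rt (κ₂.symm y)) := by
  classical
  obtain ⟨c, hw, hc⟩ := exists_comb₂_equivariant B ((map_ne_zero κ₁).2 h.1)
    ((map_ne_zero κ₂).2 h.1) h.1 hB
  have h1 : ∀ p, c p ≠ 0 → p = (κ₁.symm.trans rt, κ₂.symm.trans rt) := by
    intro p hp
    have h2 : κ₁.trans p.1 = κ₂.trans p.2 := h.2 _ _ (RingEquiv.refl F) (hw p hp)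
    have h3 : κ₁.trans p.1 = rt := by
      apply h.ext
      apply eq_of_sq_eq
      rw [rt_mul_self]
      nth_rw 2 [h2]
      exact hw p hp
    have h4 := h2.symm.trans h3
    ext x
    · simpa using DFunLike.congr_fun h3 (κ₁.symm x)
    · simpa using DFunLike.congr_fun h4 (κ₂.symm x)
  have h5 : ∀ x y, B x y = c (κ₁.symm.trans rt, κ₂.symm.trans rt) *
      (rt (κ₁.symm x) * rt (κ₂.symm y)) := by
    intro x y
    rw [hc, Finset.sum_eq_single (κ₁.symm.trans rt, κ₂.symm.trans rt)]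
    · rfl
    · intro p _ hp
      by_cases h0 : c p = 0
      · rw [h0, zero_mul]
      · exact absurd (h1 p h0) hp
    · simp
  rw [h5, h5 1 1]; simp

/-- There is no nonzero alternating equivariant pairing on the natural module. -/
theorem P3.alt_zero {l : F} (h : P3 l) (B : F →+ F →+ F)
    (hB : ∀ x y, B (l * x) (l * y) = l * B x y) (halt : B 1 1 = 0) (x y : F) : B x y = 0 := by
  rw [h.single (RingEquiv.refl F) (RingEquiv.refl F) B hB, halt, zero_mul]

theorem sum_eq_zero_of_equivariant (g : F → F) {μ a : F} (hμ : μ ≠ 0) (ha : a ≠ 1)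
    (h : ∀ s, g (μ * s) = a * g s) : ∑ s, g s = 0 := by
  have h1 : ∑ s, g (μ * s) = ∑ s, g s := Equiv.sum_comp (Equiv.mulLeft₀ μ hμ) g
  simp_rw [h, ← Finset.mul_sum] at h1
  have : (a - 1) * ∑ s, g s = 0 := by linear_combination h1
  exact (mul_eq_zero.1 this).resolve_left (sub_ne_zero.2 ha)

/-- The coefficient of the character `α`. -/
def co (α : F ≃+* F) (g : F → F) : F := ∑ s, g s * (α s)⁻¹

theorem co_eq_zero (α : F ≃+* F) (g : F → F) {μ a : F} (hμ : μ ≠ 0) (ha : a ≠ α μ)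
    (h : ∀ s, g (μ * s) = a * g s) : co α g = 0 := by
  have h0 : α μ ≠ 0 := (map_ne_zero α).2 hμ
  refine sum_eq_zero_of_equivariant _ hμ (a := a / α μ)
    (fun e => ha ((div_eq_one_iff_eq h0).1 e)) fun s => ?_
  rw [h, map_mul, mul_inv]; ring

theorem co_self (α : F ≃+* F) : co α α = 1 := by
  classical
  have : ∀ s : F, α s * (α s)⁻¹ = 1 - if s = 0 then 1 else 0 := by
    intro s
    split_ifs with h
    · simp [h]
    · rw [mul_inv_cancel₀ ((map_ne_zero α).2 h), sub_zero]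
  simp only [co, this, Finset.sum_sub_distrib, Finset.sum_const, Finset.card_univ, nsmul_eq_mul,
    FiniteField.cast_card_eq_zero, Finset.sum_ite_eq', Finset.mem_univ, if_true]
  rw [zero_mul, zero_sub, CharTwo.neg_eq]

theorem eq_of_co_ne (α : F ≃+* F) (g : F → F) (hg : ∀ x y, g (x * y) = g x * g y) (h0 : g 0 = 0)
    (h : co α g ≠ 0) (x : F) : g x = α x := by
  by_cases hx : x = 0
  · rw [hx, h0, map_zero]
  by_contra e
  exact h (co_eq_zero α g hx e fun s => hg x s)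

/-- The double coefficient. -/
def co₂ (α γ : F ≃+* F) : (F → F → F) →+ F :=
  AddMonoidHom.mk' (fun f => ∑ s, ∑ t, f s t * ((α s)⁻¹ * (γ t)⁻¹)) fun f g => by
    simp only [Pi.add_apply, add_mul, Finset.sum_add_distrib]

theorem co₂_mul (α γ : F ≃+* F) (a : F) (g h : F → F) :
    co₂ α γ (fun s t => a * (g s * h t)) = a * (co α g * co γ h) := by
  simp only [co₂, AddMonoidHom.mk'_apply, co]
  rw [Finset.sum_mul_sum, Finset.mul_sum]
  refine Finset.sum_congr rfl fun s _ => ?_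
  rw [Finset.mul_sum]
  exact Finset.sum_congr rfl fun t _ => by ring

omit [CharP F 2] in
theorem exists_ne_zero_ne_one' (h : 2 < Fintype.card F) : ∃ v : F, v ≠ 0 ∧ v ≠ 1 := by
  classical
  by_contra hc
  push Not at hc
  have : (Finset.univ : Finset F) ⊆ {0, 1} := fun v _ => by
    by_cases h0 : v = 0
    · simp [h0]
    · simp [hc v h0]
  exact absurd ((Finset.card_le_card this).trans Finset.card_le_two) (not_le.2 h)

section three

variable {V : Type*} [AddCommGroup V] {l μ : F} {ξ : V → V} {Q : V → F} {b : V →+ V →+ F}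
  {β : F →+ V →+ F}

theorem three_aux (hP : P3 l) (h2 : 2 < Fintype.card F) (κ : F ≃+* F)
    (hb : ∀ x y, b (ξ x) (ξ y) = l * b x y) (hβ : ∀ w y, β (l * w) (ξ y) = l * β w y)
    (hid : ∀ x y, β (Q x) y = b x y + β (b x y) x) (i j : F →+ V)
    (hi : ∀ s, i (κ l * s) = ξ (i s)) (hj : ∀ s, j (κ l * s) = ξ (j s)) :
    β 1 (i 1) * rt (b (i 1) (j 1)) = 0 ∧ b (i 1) (j 1) = β 1 (j 1) * rt (Q (i 1)) := by
  have h1 : ∀ s t, b (i s) (j t) = b (i 1) (j 1) * (rt (κ.symm s) * rt (κ.symm t)) :=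
    hP.single κ κ (b.compl₂ j |>.comp i) fun s t => by simp [hi, hj, hb]
  have h3 : ∀ (j : F →+ V), (∀ s, j (κ l * s) = ξ (j s)) → ∀ w t,
      β w (j t) = β 1 (j 1) * (rt w * rt (κ.symm t)) := fun j hj =>
    hP.single (RingEquiv.refl F) κ (β.compl₂ j) fun s t => by simp [hj, hβ]
  have h4 : ∀ v : F, (β 1 (j 1) * rt (Q (i 1)) + b (i 1) (j 1)) * (v * v) =
      β 1 (i 1) * rt (b (i 1) (j 1)) * v := by
    intro v
    have h5 := hid (i 1) (j (κ (fr (fr v))))
    have h6 : rt (κ.symm (κ (fr (fr v)))) = v * v := by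
      rw [RingEquiv.symm_apply_apply, ← fr_apply v]; exact fr.symm_apply_apply _
    have h7 : rt (v * v) = v := by rw [← fr_apply]; simp [rt]
    rw [h3 j hj, h3 i hi, h1, h6, map_mul, map_mul, h7] at h5
    simp only [map_one, mul_one, one_mul] at h5
    linear_combination h5 + CharTwo.add_self_eq_zero (b (i 1) (j 1) * (v * v))
  obtain ⟨v, hv0, hv1⟩ := exists_ne_zero_ne_one' h2
  have h8 := h4 1
  have h9 := h4 v
  rw [mul_one, mul_one, mul_one] at h8
  rw [h8] at h9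
  have h10 : β 1 (i 1) * rt (b (i 1) (j 1)) = 0 := by
    have : β 1 (i 1) * rt (b (i 1) (j 1)) * (v * (v - 1)) = 0 := by linear_combination h9
    exact (mul_eq_zero.1 this).resolve_right (mul_ne_zero hv0 (sub_ne_zero.2 hv1))
  refine ⟨h10, ?_⟩
  rw [h10] at h8
  exact (CharTwo.add_eq_zero.1 h8).symm

/-- The class three configuration is impossible on an isotypic component. -/
theorem class_three (hP : P3 l) (h2 : 2 < Fintype.card F) (hμ : μ ≠ 0)
    (hQ : ∀ x, Q (ξ x) = l * Q x) (hb : ∀ x y, b (ξ x) (ξ y) = l * b x y)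
    (hβ : ∀ w y, β (l * w) (ξ y) = l * β w y) (hs : ∀ x y, b x y = b y x)
    (hid : ∀ x y, β (Q x) y = b x y + β (b x y) x) (i j : F →+ V)
    (hi : ∀ s, i (μ * s) = ξ (i s)) (hj : ∀ s, j (μ * s) = ξ (j s)) (s t : F) :
    b (i s) (j t) = 0 := by
  classical
  by_cases hκ : ∃ κ : F ≃+* F, κ l = μ
  · obtain ⟨κ, rfl⟩ := hκ
    have h1 := three_aux hP h2 κ hb hβ hid i j hi hj
    have h3 := three_aux hP h2 κ hb hβ hid j i hj hi
    have h4 : b (i 1) (j 1) = 0 := by
      by_contra h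
      rw [hs (j 1)] at h3
      have := (mul_eq_zero.1 h3.1).resolve_right ((map_ne_zero rt).2 h)
      exact h (by rw [h1.2, this, zero_mul])
    have h5 : b (i s) (j t) = b (i 1) (j 1) * (rt (κ.symm s) * rt (κ.symm t)) :=
      hP.single κ κ (b.compl₂ j |>.comp i) (fun s t => by simp [hi, hj, hb]) s t
    rw [h5, h4, zero_mul]
  push Not at hκ
  obtain ⟨c, hw, hc⟩ := exists_comb₂_equivariant (b.compl₂ j |>.comp i) hμ hμ hP.1
    (fun s t => by simp [hi, hj, hb])
  replace hc : ∀ s t, b (i s) (j t) = ∑ p : (F ≃+* F) × (F ≃+* F), c p * (p.1 s * p.2 t) := hc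
  obtain ⟨d, hd⟩ := exists_comb₂ (β.compl₂ j)
  replace hd : ∀ w t, β w (j t) = ∑ p : (F ≃+* F) × (F ≃+* F), d p * (p.1 w * p.2 t) := hd
  obtain ⟨e, he⟩ := exists_comb₂ (β.compl₂ i)
  replace he : ∀ w t, β w (i t) = ∑ p : (F ≃+* F) × (F ≃+* F), e p * (p.1 w * p.2 t) := he
  have step : ∀ p₀, c p₀ ≠ 0 → ∃ p, c p ≠ 0 ∧ ∃ ρ : F ≃+* F, (∀ x, ρ (p.2 x) = p₀.2 x) ∧
      ∀ x, ρ (p.1 x) * ρ (p.1 x) = p₀.1 x := by
    intro p₀ hp₀
    by_contra hcon
    push Not at hcon
    have hid' : (∑ p : (F ≃+* F) × (F ≃+* F), fun s t => d p * (p.1 (Q (i s)) * p.2 t)) =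
        (∑ p : (F ≃+* F) × (F ≃+* F), fun s t => c p * (p.1 s * p.2 t)) +
        ∑ r : (F ≃+* F) × (F ≃+* F), ∑ p : (F ≃+* F) × (F ≃+* F),
          fun s t => e r * r.1 (c p) * ((r.1 (p.1 s) * r.2 s) * r.1 (p.2 t)) := by
      funext s t
      simp only [Finset.sum_apply, Pi.add_apply]
      rw [← hd, hid, he, ← hc]
      congr 1
      refine Finset.sum_congr rfl fun r _ => ?_
      rw [hc, map_sum, Finset.sum_mul, Finset.mul_sum]
      refine Finset.sum_congr rfl fun p _ => ?_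
      rw [map_mul, map_mul]; ring
    have h1 := congrArg (co₂ p₀.1 p₀.2) hid'
    simp only [map_add, map_sum, co₂_mul] at h1
    rw [Finset.sum_eq_zero, Finset.sum_eq_single p₀, Finset.sum_eq_zero, co_self, co_self] at h1
    · exact hp₀ (by simpa using h1.symm)
    · intro r _
      refine Finset.sum_eq_zero fun p _ => ?_
      by_contra h0
      have h3 := mul_ne_zero_iff.1 h0
      have h4 := mul_ne_zero_iff.1 h3.2
      have h5 := eq_of_co_ne p₀.1 _ (fun x y => by simp only [map_mul]; ring) (by simp) h4.1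
      have h6 := eq_of_co_ne p₀.2 _ (fun x y => by simp only [map_mul]) (by simp) h4.2
      have h7 : p.1.trans r.1 = r.2 := eq_of_mul_eq_aut (ρ := p₀.1) h5
      obtain ⟨x, hx⟩ := hcon p (fun h => (mul_ne_zero_iff.1 h3.1).2 (by rw [h, map_zero])) r.1 h6
      refine hx ?_
      rw [← h5 x, ← h7]; rfl
    · intro p _ hp
      by_contra h0
      have h4 := mul_ne_zero_iff.1 (mul_ne_zero_iff.1 h0).2
      have h5 := eq_of_co_ne p₀.1 _ (map_mul p.1) (map_zero _) h4.1
      have h6 := eq_of_co_ne p₀.2 _ (map_mul p.2) (map_zero _) h4.2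
      exact hp (Prod.ext (RingEquiv.ext h5) (RingEquiv.ext h6))
    · simp
    · intro p _
      rw [co_eq_zero p₀.1 (fun s => p.1 (Q (i s))) hμ (a := p.1 l) (fun h => ?_) fun s => ?_,
        zero_mul, mul_zero]
      · exact hκ (p.1.trans p₀.1.symm) (by simp [h])
      · rw [hi, hQ, map_mul]
  have ind : ∀ k : ℕ, ∀ p, c p ≠ 0 → (∀ x, p.1 x = p.2 x ^ 2 ^ k) → False := by
    intro k
    induction k with
    | zero =>
      intro p hp h
      refine hκ (p.2.trans fr).symm ?_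
      rw [RingEquiv.symm_apply_eq, RingEquiv.trans_apply, fr_apply, ← hw p hp, h]
      simp
    | succ k ih =>
      intro p₀ hp₀ h
      obtain ⟨p, hp, ρ, h1, h3⟩ := step p₀ hp₀
      refine ih p hp fun x => ρ.injective (eq_of_sq_eq ?_)
      rw [h3, h, map_pow, h1, pow_succ, pow_mul, pow_two]
  rw [hc]
  refine Finset.sum_eq_zero fun p _ => ?_
  by_contra h
  obtain ⟨k, hk⟩ := exists_pow (p.2.symm.trans p.1)
  exact ind k p (left_ne_zero_of_mul h) fun x => by simpa using hk (p.2 x)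

end three

/-- Decomposition of a vector into isotypic components. -/
theorem mem_of_weights {V : Type*} [AddCommGroup V] (hV : ∀ v : V, v + v = 0)
    (ξ : V →+ V) (hξ : ∀ v, ξ^[Fintype.card F - 1] v = v) (U : AddSubgroup V)
    (hU : ∀ μ : F, μ ≠ 0 → ∀ ι : F →+ V, (∀ s, ι (μ * s) = ξ (ι s)) → ∀ s, ι s ∈ U) (v : V) :
    v ∈ U := by
  classical
  letI : Algebra (ZMod 2) F := ZMod.algebra F 2
  letI : Module (ZMod 2) V := AddCommGroup.zmodModule fun x => by rw [two_nsmul, hV]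
  obtain ⟨f, hf⟩ := Module.Projective.exists_dual_eq_one (ZMod 2) (one_ne_zero (α := F))
  let j : F →+ V := (f.smulRight v).toAddMonoidHom
  have hj : j 1 = v := by simp [j, hf]
  obtain ⟨N, hN⟩ : ∃ N, Fintype.card F - 1 = N + 1 :=
    ⟨Fintype.card F - 2, by have := Fintype.one_lt_card (α := F); omega⟩
  let P : ℕ → V →+ V := fun i => AddMonoidHom.mk' (ξ^[i]) (iterate_map_add ξ i)
  have hP : ∀ i x, P (i + 1) x = ξ (P i x) := fun i x => Function.iterate_succ_apply' ξ i x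
  have hP0 : ∀ x, P 0 x = x := fun _ => rfl
  let ι : Fˣ → F →+ V := fun μ => AddMonoidHom.mk'
    (fun s => ∑ i ∈ Finset.range (N + 1), P i (j ((μ : F) ^ i * s))) fun s t => by
      simp only [mul_add, map_add, Finset.sum_add_distrib]
  have hι : ∀ μ s, ι μ s = ∑ i ∈ Finset.range (N + 1), P i (j ((μ : F) ^ i * s)) := fun _ _ => rfl
  have h1 : ∀ (μ : Fˣ) s, ι μ ((μ : F)⁻¹ * s) = ξ (ι μ s) := by
    intro μ s
    rw [hι, hι, map_sum, Finset.sum_range_succ', Finset.sum_range_succ]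
    congr 1
    · refine Finset.sum_congr rfl fun i _ => ?_
      rw [hP, pow_succ, mul_assoc, mul_inv_cancel_left₀ μ.ne_zero]
    · have h1 : (μ : F) ^ N = (μ : F)⁻¹ := by
        have := FiniteField.pow_card_sub_one_eq_one _ μ.ne_zero
        rw [hN, pow_succ] at this
        exact eq_inv_of_mul_eq_one_left this
      rw [h1, ← hP, hP0, pow_zero, one_mul]
      exact (hN ▸ hξ _ :).symm
  have h2 : ∑ μ, ι μ 1 = v := by
    simp only [hι, mul_one]
    rw [Finset.sum_comm]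
    simp_rw [← map_sum, FiniteField.sum_pow_units, hN]
    rw [Finset.sum_eq_single 0]
    · rw [if_pos (dvd_zero _), CharTwo.neg_eq, hj, hP0]
    · intro i hi h0
      rw [if_neg (Nat.not_dvd_of_pos_of_lt (Nat.pos_of_ne_zero h0) (Finset.mem_range.1 hi))]
      simp
    · simp
  rw [← h2]
  exact U.sum_mem fun μ _ => hU _ (inv_ne_zero μ.ne_zero) _ (h1 μ) 1

theorem sum_eq_zero_of_shift {W : Type*} [AddCommGroup W] [Fintype W] (hW : ∀ v : W, v + v = 0)
    (g : W → F) (a : W) (ha : a ≠ 0) (hg : ∀ x, g (x + a) = g x) : ∑ x, g x = 0 := by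
  refine Finset.sum_involution (fun x _ => x + a) (fun x _ => ?_) (fun x _ _ => ?_)
    (fun x _ => Finset.mem_univ _) (fun x _ => ?_)
  · rw [hg, CharTwo.add_self_eq_zero]
  · intro h; exact ha (add_eq_left.1 h)
  · rw [add_assoc, hW, add_zero]

/-- The parity argument. -/
theorem false_of_fixed {V : Type*} [AddCommGroup V] [Finite V]
    (hV : ∀ v : V, v + v = 0) (β : F →+ V →+ F)
    (hz : ∀ w : F, ∃ v, v ≠ 0 ∧ β w v = 0) (hfix : ∀ v, v ≠ 0 → ∃ w, w ≠ 0 ∧ β w v = w) :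
    False := by
  classical
  letI := Fintype.ofFinite V
  have h3 : ∑ v : V, ∑ w : F, (if β w v = w then (1 : F) else 0) = 1 := by
    rw [Finset.sum_eq_single 0]
    · simp
    · intro v _ hv
      obtain ⟨a, ha, ha2⟩ := hfix v hv
      refine sum_eq_zero_of_shift CharTwo.add_self_eq_zero _ a ha fun x => ?_
      simp only [map_add, AddMonoidHom.add_apply, ha2, add_left_inj]
    · simp
  have h4 : ∑ w : F, ∑ v : V, (if β w v = w then (1 : F) else 0) = 0 := by
    refine Finset.sum_eq_zero fun w' _ => ?_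
    obtain ⟨a, ha, ha2⟩ := hz w'
    refine sum_eq_zero_of_shift hV _ a ha fun x => ?_
    simp only [map_add, ha2, add_zero]
  rw [Finset.sum_comm, h4] at h3
  exact zero_ne_one h3

end Cfsg.Agent.Suz.Sol
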